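import Cfsg.Prelude.Def_CaseTheorems
import Cfsg.Agent.Coprime.Generation
import Cfsg.Agent.Cores.Basic
import Cfsg.Agent.PGroup.Basic

/-!
In a group of characteristic 2 type, a normal four-subgroup of a Sylow 2-subgroup centralizes the
subgroups of odd order it normalizes.
-/

set_option autoImplicit false
set_option linter.style.haveILetI false

namespace Cfsg.Agent.Tech.CharTwoFour

open Subgroup Cfsg.Agent
open scoped commutatorElement

variable {G : Type*} [Group G] [Finite G]

theorem eq_one_of_odd {x : G} {n k : ℕ} (hn : Odd n) (hk : x ^ 2 ^ k = 1) (h : x ^ n = 1) : x = 1 :=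
  orderOf_eq_one_iff.1 (Nat.eq_one_of_dvd_coprimes
    ((Nat.coprime_two_left.2 hn).pow_left k) (orderOf_dvd_of_pow_eq_one hk) (orderOf_dvd_of_pow_eq_one h))

/-- An element of `H` acting trivially on `Q / ⟨u⟩` lies in `Q = O₂(H)` when `u` is a central
involution and `C_H(Q) ≤ Q`. -/
theorem mem_core_of_stabilizes {H : Type*} [Group H] [Finite H] {u : H} (hu : u * u = 1)
    (huc : ∀ h : H, h * u * h⁻¹ = u) (hc : Cfsg.IsOfCharacteristicTwo H) {v : H}
    (hv : ∀ q ∈ Cfsg.pCore 2 H, ⁅v, q⁆ ∈ zpowers u) : v ∈ Cfsg.pCore 2 H := by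
  set Q := Cfsg.pCore 2 H with hQ
  have hZc : ∀ d ∈ zpowers u, ∀ h : H, h * d * h⁻¹ = d := by
    intro d hd h
    obtain ⟨i, rfl⟩ := mem_zpowers_iff.1 hd
    rw [← conj_zpow, huc]
  let K : Subgroup H :=
    { carrier := {h | ∀ q ∈ Q, ⁅h, q⁆ ∈ zpowers u}
      one_mem' := fun q _ => by rw [commutatorElement_one_left]; exact one_mem _
      mul_mem' := fun {g k} hg hk q hq => by
        have e : ⁅g * k, q⁆ = (g * ⁅k, q⁆ * g⁻¹) * ⁅g, q⁆ := by
          simp only [commutatorElement_def]; group
        rw [e, hZc _ (hk q hq)]; exact mul_mem (hk q hq) (hg q hq)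
      inv_mem' := fun {g} hg q hq => by
        have e : ⁅g⁻¹, q⁆ = g⁻¹ * ⁅g, q⁆⁻¹ * g⁻¹⁻¹ := by
          simp only [commutatorElement_def]; group
        rw [e, hZc _ (inv_mem (hg q hq))]; exact inv_mem (hg q hq) }
  haveI : K.Normal := ⟨fun k hk g q hq => by
    have e : ⁅g * k * g⁻¹, q⁆ = g * ⁅k, g⁻¹ * q * g⁻¹⁻¹⁆ * g⁻¹ := by
      simp only [commutatorElement_def]; group
    have hmem := hk _ ((inferInstance : Q.Normal).conj_mem q hq g⁻¹)
    rw [e, hZc _ hmem]; exact hmem⟩
  refine Cores.le_pCore (N := K) inferInstance ?_ hv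
  intro ⟨g, hg⟩
  obtain ⟨i, n, hn, hord⟩ := Nat.exists_eq_two_pow_mul_odd (orderOf_pos g).ne'
  set y := g ^ 2 ^ i with hy
  have hyn : y ^ n = 1 := by rw [hy, ← pow_mul, ← hord, pow_orderOf_eq_one]
  have hyK : y ∈ K := K.pow_mem hg _
  have hyQ : y ∈ Q := by
    refine hc (mem_centralizer_iff.2 fun q hq => ?_)
    set d := ⁅y, q⁆ with hd
    have hdz : d ∈ zpowers u := hyK q hq
    have key : ∀ j : ℕ, y ^ j * q * (y ^ j)⁻¹ = d ^ j * q := by
      intro j
      induction j with
      | zero => simp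
      | succ j ih =>
        calc y ^ (j + 1) * q * (y ^ (j + 1))⁻¹ = y * (y ^ j * q * (y ^ j)⁻¹) * y⁻¹ := by
              rw [pow_succ']; group
          _ = (y * d ^ j * y⁻¹) * (y * q * y⁻¹) := by rw [ih]; group
          _ = d ^ j * (d * q) := by
              rw [hZc _ (pow_mem hdz j), hd, commutatorElement_def, inv_mul_cancel_right]
          _ = d ^ (j + 1) * q := by rw [← mul_assoc, ← pow_succ]
    have h := key n
    rw [hyn, one_mul, inv_one, mul_one] at h
    have hd2 : d ^ 2 ^ 1 = 1 := by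
      obtain ⟨j, hj⟩ := mem_zpowers_iff.1 hdz
      rw [← hj, pow_one, sq, ← (Commute.refl u).mul_zpow, hu, one_zpow]
    have hd1 : d = 1 := eq_one_of_odd hn hd2 (right_eq_mul.1 h)
    exact (commutatorElement_eq_one_iff_mul_comm.1 (hd ▸ hd1)).symm
  obtain ⟨k, hk⟩ := Cores.pCore_isPGroup (p := 2) ⟨y, hyQ⟩
  have hy1 : y = 1 := eq_one_of_odd hn (congrArg Subtype.val hk) hyn
  exact ⟨i, Subtype.ext hy1⟩

/-- In a four-group a point fixed by an automorphism confines the commutators. -/
theorem conj_mem_zpowers {U : Subgroup G} (hU4 : Nat.card U = 4) (hU2 : ∀ x ∈ U, x * x = 1) {u v q : G}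
    (hu : u ∈ U) (hu1 : u ≠ 1) (hv : v ∈ U) (hqu : q * u * q⁻¹ = u) (hqv : q * v * q⁻¹ ∈ U) :
    ⁅v, q⁆ ∈ zpowers u := by
  classical
  have hinv : ∀ x ∈ U, x⁻¹ = x := fun x hx => inv_eq_of_mul_eq_one_right (hU2 x hx)
  set w := q * v * q⁻¹ with hw
  have e : ⁅v, q⁆ = v * w⁻¹ := by rw [hw, commutatorElement_def]; group
  rw [e, hinv w hqv]
  by_cases hv1 : v = 1
  · subst hv1; simp [hw]
  by_cases hvu : v = u
  · rw [show w = u by rw [hw, hvu, hqu], hvu, hU2 u hu]; exact one_mem _
  have hw1 : w ≠ 1 := fun h => hv1 (conj_eq_one_iff.1 h)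
  have hwu : w ≠ u := fun h => hvu (by
    have : q * v * q⁻¹ = q * u * q⁻¹ := h.trans hqu.symm
    exact mul_left_cancel (mul_right_cancel this))
  have hset : (U : Set G) = {1, u, v, u * v} := by
    symm
    refine Set.eq_of_subset_of_ncard_le ?_ ?_ (Set.toFinite _)
    · rintro x (rfl | rfl | rfl | rfl)
      · exact U.one_mem
      · exact hu
      · exact hv
      · exact U.mul_mem hu hv
    · have h3 : u * v ≠ 1 := fun h => hvu (by rw [← hinv u hu]; exact (inv_eq_of_mul_eq_one_right h).symm)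
      have h4 : u * v ≠ u := fun h => hv1 (left_eq_mul.1 h.symm)
      have h5 : u * v ≠ v := fun h => hu1 (right_eq_mul.1 h.symm)
      rw [show (U : Set G).ncard = 4 from hU4]
      rw [Set.ncard_insert_of_notMem (by simp [Ne.symm hu1, Ne.symm hv1, Ne.symm h3]),
        Set.ncard_insert_of_notMem (by simp [Ne.symm hvu, Ne.symm h4]),
        Set.ncard_insert_of_notMem (by simp [Ne.symm h5]), Set.ncard_singleton]
  have hwm : w ∈ (U : Set G) := hqv
  rw [hset] at hwm
  rcases hwm with h | h | h | h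
  · exact absurd h hw1
  · exact absurd h hwu
  · rw [h, hU2 v hv]; exact one_mem _
  · have hc : v * (u * v) = u := by
      have huv : v * u = u * v := by
        calc v * u = (v * u)⁻¹ := (hinv _ (U.mul_mem hv hu)).symm
          _ = u * v := by rw [mul_inv_rev, hinv u hu, hinv v hv]
      rw [← mul_assoc, huv, mul_assoc, hU2 v hv, mul_one]
    rw [h, hc]; exact mem_zpowers u

theorem centralizes (h2 : Cfsg.IsCharacteristicTwoType G)
    (P : Sylow 2 G) (U : Subgroup G) (hUP : U ≤ (P : Subgroup G))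
    (hUn : (P : Subgroup G) ≤ normalizer (U : Set G)) (hU4 : IsKleinFour ↥U)
    (hUZ : ¬ IsCyclic ↥((P : Subgroup G) ⊓ centralizer ((P : Subgroup G) : Set G)) →
      U ≤ centralizer ((P : Subgroup G) : Set G))
    (K : Subgroup G) (hK : Odd (Nat.card K)) (hUK : U ≤ normalizer (K : Set G)) :
    U ≤ centralizer (K : Set G) := by
  classical
  haveI := hU4
  have hcard : Nat.card U = 4 := IsKleinFour.card_four
  have hU2 : ∀ x ∈ U, x * x = 1 := fun x hx =>
    congrArg Subtype.val (IsKleinFour.mul_self (⟨x, hx⟩ : U))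
  have hUp : IsPGroup 2 U := P.2.to_le hUP
  set P0 := (P : Subgroup G) with hP0
  haveI : IsMulCommutative U := ⟨⟨fun a b => mul_comm_of_exponent_two IsKleinFour.exponent_two a b⟩⟩
  -- centralizers of involutions have characteristic two
  have hchar : ∀ u ∈ U, u ≠ 1 → ∀ v ∈ U,
      (∀ q : G, q ∈ (Cfsg.pCore 2 ↥(normalizer (zpowers u : Set G))).map
        (normalizer (zpowers u : Set G)).subtype → q * v * q⁻¹ ∈ U) →
      ∀ x ∈ K, x * u = u * x → x * v = v * x := by
    intro u hu hu1 v hv hq x hxK hxu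
    set H := normalizer (zpowers u : Set G) with hH
    have hzp : IsPGroup 2 (zpowers u) := hUp.to_le (zpowers_le.2 hu)
    have hcH := h2.2 (zpowers u) hzp (by rwa [Ne, zpowers_eq_bot])
    have hnu : ∀ g : G, g * u = u * g → g ∈ H := fun g hg => mem_normalizer_iff_map_conj_eq.2 (by
      rw [MonoidHom.map_zpowers]; simp [hg])
    have hHfix : ∀ g ∈ H, g * u * g⁻¹ = u := by
      intro g hg
      have h := (mem_normalizer_iff.1 hg u).1 (mem_zpowers u)
      obtain ⟨i, hi⟩ := mem_zpowers_iff.1 h
      rcases Int.even_or_odd i with ⟨j, rfl⟩ | ⟨j, rfl⟩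
      · rw [zpow_add, ← (Commute.refl u).mul_zpow, hU2 u hu, one_zpow] at hi
        exact absurd (conj_eq_one_iff.1 hi.symm) hu1
      · rw [two_mul, zpow_add, zpow_add, zpow_one, ← (Commute.refl u).mul_zpow, hU2 u hu, one_zpow,
          one_mul] at hi
        exact hi.symm
    have hcomm : ∀ y ∈ U, y * u = u * y := fun y hy =>
      congrArg Subtype.val (mul_comm' (⟨y, hy⟩ : U) ⟨u, hu⟩)
    set uH : H := ⟨u, hnu u rfl⟩
    set vH : H := ⟨v, hnu v (hcomm v hv)⟩
    have hvQ : vH ∈ Cfsg.pCore 2 H := by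
      refine mem_core_of_stabilizes (u := uH) (Subtype.ext (hU2 u hu))
        (fun h => Subtype.ext (hHfix h h.2)) hcH fun q hqQ => ?_
      have h := conj_mem_zpowers hcard hU2 hu hu1 hv (hHfix q q.2) (hq q (mem_map_of_mem _ hqQ))
      obtain ⟨i, hi⟩ := mem_zpowers_iff.1 h
      exact mem_zpowers_iff.2 ⟨i, Subtype.ext (by simp [uH, vH, commutatorElement_def] at hi ⊢; exact hi)⟩
    set xH : H := ⟨x, hnu x hxu⟩
    have h1 : ⁅vH, xH⁆ ∈ Cfsg.pCore 2 H := by
      rw [commutatorElement_def, show vH * xH * vH⁻¹ * xH⁻¹ = vH * (xH * vH⁻¹ * xH⁻¹) by group]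
      exact mul_mem hvQ ((inferInstance : (Cfsg.pCore 2 H).Normal).conj_mem _ (inv_mem hvQ) xH)
    have h2' : (⁅vH, xH⁆ : H).1 ∈ K := by
      show v * x * v⁻¹ * x⁻¹ ∈ K
      exact K.mul_mem ((mem_normalizer_iff.1 (hUK hv) x).1 hxK) (K.inv_mem hxK)
    obtain ⟨k, hk⟩ := Cores.pCore_isPGroup (p := 2) ⟨_, h1⟩
    have hk' : (⁅vH, xH⁆ : H).1 ^ 2 ^ k = 1 := by
      simpa using congrArg (fun z : Cfsg.pCore 2 H => ((z : H) : G)) hk
    have h3 : (⁅vH, xH⁆ : H).1 = 1 := eq_one_of_odd hK hk'
      (by
        have h := congrArg Subtype.val (pow_card_eq_one' (x := (⟨_, h2'⟩ : K)))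
        simp only [SubmonoidClass.coe_pow, OneMemClass.coe_one] at h
        exact h)
    have h4 : ⁅v, x⁆ = 1 := h3
    exact (commutatorElement_eq_one_iff_mul_comm.1 h4).symm
  -- the conjugation hypothesis
  have hconj : ∀ u ∈ U, u ≠ 1 → ∀ v ∈ U, ∀ q : G,
      q ∈ (Cfsg.pCore 2 ↥(normalizer (zpowers u : Set G))).map
        (normalizer (zpowers u : Set G)).subtype → q * v * q⁻¹ ∈ U := by
    intro u hu hu1 v hv q hq
    set H := normalizer (zpowers u : Set G) with hH
    set Q := (Cfsg.pCore 2 H).map H.subtype with hQ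
    have hQp : IsPGroup 2 Q := Cores.pCore_isPGroup.map _
    have hHQ : H ≤ normalizer (Q : Set G) := fun h hh => by
      refine mem_normalizer_fintype (S := (Q : Set G)) ?_
      rintro _ ⟨x, hx, rfl⟩
      exact ⟨⟨h, hh⟩ * x * ⟨h, hh⟩⁻¹, (inferInstance : (Cfsg.pCore 2 H).Normal).conj_mem x hx _, rfl⟩
    have hnu : ∀ g : G, g * u = u * g → g ∈ H := fun g hg => mem_normalizer_iff_map_conj_eq.2 (by
      rw [MonoidHom.map_zpowers]; simp [hg])
    by_cases huc : ∀ x ∈ P0, x * u = u * x
    · have hle : Q ≤ P0 := le_sup_left.trans_eq (P.3 (hQp.to_sup_of_normal_left' P.2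
        fun x hx => hHQ (hnu x (huc x hx))) le_sup_right)
      exact (mem_normalizer_iff.1 (hUn (hle hq)) v).1 hv
    · push Not at huc
      obtain ⟨p, hp, hpu⟩ := huc
      have hUc : ¬ U ≤ centralizer (P0 : Set G) := fun h => hpu (mem_centralizer_iff.1 (h hu) p hp)
      have hcyc : IsCyclic ↥(P0 ⊓ centralizer (P0 : Set G)) := by
        by_contra h; exact hUc (hUZ h)
      haveI := hcyc
      -- the only involution of the centre
      have huniq : ∀ x ∈ P0 ⊓ centralizer (P0 : Set G), x * x = 1 → ∀ y ∈ P0 ⊓ centralizer (P0 : Set G),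
          y * y = 1 → x ≠ 1 → y ≠ 1 → x = y := by
        intro x hx hx2 y hy hy2 hx1 hy1
        set C := P0 ⊓ centralizer (P0 : Set G)
        have ho : ∀ z (hz : z ∈ C), z * z = 1 → z ≠ 1 → orderOf (⟨z, hz⟩ : C) = 2 := fun z hz h h1 =>
          orderOf_eq_prime (Subtype.ext (by simp [sq, h])) (fun e => h1 (congrArg Subtype.val e))
        haveI : Fintype C := Fintype.ofFinite C
        have hz2 := IsCyclic.card_orderOf_eq_totient (α := C) (d := 2)
          (by rw [← ho x hx hx2 hx1, ← Nat.card_eq_fintype_card]; exact orderOf_dvd_natCard _)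
        rw [show Nat.totient 2 = 1 from rfl, Finset.card_eq_one] at hz2
        obtain ⟨a, ha⟩ := hz2
        have h1 : (⟨x, hx⟩ : C) ∈ ({a} : Finset C) := ha ▸ by simp [ho x hx hx2 hx1]
        have h2 : (⟨y, hy⟩ : C) ∈ ({a} : Finset C) := ha ▸ by simp [ho y hy hy2 hy1]
        exact congrArg Subtype.val ((Finset.mem_singleton.1 h1).trans (Finset.mem_singleton.1 h2).symm)
      -- a central element of `U`
      obtain ⟨z, hzU, hz1, hzc⟩ : ∃ z ∈ U, z ≠ 1 ∧ z ∈ P0 ⊓ centralizer (P0 : Set G) := by
        refine ⟨u * (p * u * p⁻¹), U.mul_mem hu ((mem_normalizer_iff.1 (hUn hp) u).1 hu), ?_, ?_⟩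
        · intro h
          apply hpu
          have h' : p * u * p⁻¹ = u := by
            rw [← inv_eq_of_mul_eq_one_right h, inv_eq_of_mul_eq_one_right (hU2 u hu)]
          exact mul_inv_eq_iff_eq_mul.1 h'
        · have hw := (mem_normalizer_iff.1 (hUn hp) u).1 hu
          refine ⟨P0.mul_mem (hUP hu) (hUP hw), mem_centralizer_iff.2 fun x hx => ?_⟩
          -- `U` has a nontrivial fixed point, necessarily this one
          have hne : U.subgroupOf P0 ⊓ center P0 ≠ ⊥ := by
            haveI : (U.subgroupOf P0).Normal := normal_subgroupOf_of_le_normalizer hUn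
            refine PGroup.inf_center_ne_bot P.2 _ fun h => hu1 ?_
            have : (⟨u, hUP hu⟩ : P0) ∈ U.subgroupOf P0 := hu
            rw [h, mem_bot] at this
            exact congrArg Subtype.val this
          obtain ⟨⟨c, hcP⟩, hc, hc1⟩ := (bot_or_exists_ne_one _).resolve_left hne
          have hcU : c ∈ U := hc.1
          have hcx : ∀ y ∈ P0, y * c * y⁻¹ = c := fun y hy => by
            rw [mul_inv_eq_iff_eq_mul]
            exact congrArg Subtype.val (mem_center_iff.1 hc.2 ⟨y, hy⟩)
          have hc1' : c ≠ 1 := fun h => hc1 (Subtype.ext h)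
          have h3 := conj_mem_zpowers hcard hU2 hcU hc1' hu (hcx p hp) hw
          have e : ⁅u, p⁆ = u * (p * u * p⁻¹) := by
            conv_rhs => rw [← inv_eq_of_mul_eq_one_right (hU2 _ hw)]
            rw [commutatorElement_def]; group
          rw [e] at h3
          obtain ⟨i, hi⟩ := mem_zpowers_iff.1 h3
          rw [← hi]
          exact ((show Commute x c from mul_inv_eq_iff_eq_mul.1 (hcx x hx)).zpow_right i).eq
      have hzfix : ∀ x ∈ P0, x * z = z * x := fun x hx => mem_centralizer_iff.1 hzc.2 x hx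
      have hznu : z ≠ u := fun h => hpu (h ▸ hzfix p hp)
      have hmove : ∀ x ∈ P0, x * u * x⁻¹ = u ∨ x * u * x⁻¹ = u * z := by
        intro x hx
        have h := conj_mem_zpowers hcard hU2 hzU hz1 hu (mul_inv_eq_iff_eq_mul.2 (hzfix x hx))
          ((mem_normalizer_iff.1 (hUn hx) u).1 hu)
        have h' : ∀ w ∈ zpowers z, w = 1 ∨ w = z := by
          intro w hw
          obtain ⟨i, rfl⟩ := mem_zpowers_iff.1 hw
          rcases Int.even_or_odd i with ⟨j, rfl⟩ | ⟨j, rfl⟩
          · exact Or.inl (by rw [zpow_add, ← (Commute.refl z).mul_zpow, hU2 z hzU, one_zpow])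
          · exact Or.inr (by rw [two_mul, zpow_add, zpow_add, zpow_one, ← (Commute.refl z).mul_zpow,
              hU2 z hzU, one_zpow, one_mul])
        have hxu : x * u * x⁻¹ = (⁅u, x⁆)⁻¹ * u := by rw [commutatorElement_def]; group
        rcases h' _ h with e | e
        · exact Or.inl (by rw [hxu, e, inv_one, one_mul])
        · refine Or.inr ?_
          rw [hxu, e, inv_eq_of_mul_eq_one_right (hU2 z hzU)]
          exact congrArg Subtype.val (mul_comm' (⟨z, hzU⟩ : U) ⟨u, hu⟩)
      have hpu' : p * u * p⁻¹ = u * z :=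
        (hmove p hp).resolve_left fun h => hpu (mul_inv_eq_iff_eq_mul.1 h)
      -- `T = C_P(u)` of index two
      set T := P0 ⊓ centralizer ({u} : Set G) with hT
      have hTmem : ∀ x ∈ P0, x * u * x⁻¹ = u → x ∈ T := fun x hx h =>
        ⟨hx, mem_centralizer_singleton_iff.2 (mul_inv_eq_iff_eq_mul.1 h)⟩
      have hTidx : T.relIndex P0 = 2 := by
        show (T.subgroupOf P0).index = 2
        rw [index_eq_two_iff]
        refine ⟨⟨p, hp⟩, fun x => ?_⟩
        have hxp : (x : G) * p * u * ((x : G) * p)⁻¹ = (x * u * (x : G)⁻¹) * z := by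
          calc (x : G) * p * u * ((x : G) * p)⁻¹ = x * (p * u * p⁻¹) * (x : G)⁻¹ := by group
            _ = (x * u * (x : G)⁻¹) * (x * z * (x : G)⁻¹) := by rw [hpu']; group
            _ = _ := by rw [hzfix x x.2, mul_inv_cancel_right]
        rcases hmove x x.2 with h | h
        · refine Or.inr ⟨hTmem x x.2 h, fun h' => hz1 ?_⟩
          have h'' := (mem_centralizer_singleton_iff.1 (mem_subgroupOf.1 h').2)
          have : (x : G) * p * u * ((x : G) * p)⁻¹ = u := mul_inv_eq_iff_eq_mul.2 (by simpa using h'')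
          rw [hxp, h] at this
          exact left_eq_mul.1 this.symm
        · refine Or.inl ⟨hTmem _ (P0.mul_mem x.2 hp) ?_, fun h' => hz1 ?_⟩
          · show (x : G) * p * u * ((x : G) * p)⁻¹ = u
            rw [hxp, h, mul_assoc, hU2 z hzU, mul_one]
          · have h'' := (mem_centralizer_singleton_iff.1 (mem_subgroupOf.1 h').2)
            have : (x : G) * u * (x : G)⁻¹ = u := mul_inv_eq_iff_eq_mul.2 h''
            rw [h] at this
            exact left_eq_mul.1 this.symm
      have hTH : T ≤ H := fun x hx => hnu x (mem_centralizer_singleton_iff.1 hx.2)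
      have hT1 : IsPGroup 2 ↥(T ⊔ Q) := (P.2.to_le inf_le_left).to_sup_of_normal_right' hQp (hTH.trans hHQ)
      obtain ⟨S1, hS1⟩ := hT1.exists_le_sylow
      have hcardT : T.relIndex (T ⊔ Q) ≤ 2 := by
        have h1 := card_mul_index (T.subgroupOf (T ⊔ Q))
        rw [Nat.card_congr (subgroupOfEquivOfLe le_sup_left).toEquiv, ← relIndex] at h1
        have h2' := card_mul_index (T.subgroupOf P0)
        rw [Nat.card_congr (subgroupOfEquivOfLe inf_le_left).toEquiv, ← relIndex, hTidx] at h2'
        have h3 : Nat.card ↥(T ⊔ Q) ≤ Nat.card P0 := (card_le_of_le hS1).trans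
          (Sylow.card_eq_multiplicity S1 ▸ (Sylow.card_eq_multiplicity P).ge)
        rw [← h1, ← h2'] at h3
        exact Nat.le_of_mul_le_mul_left h3 Nat.card_pos
      have hqn : q ∈ normalizer (T : Set G) := by
        have hn : (T.subgroupOf (T ⊔ Q)).Normal := by
          have h0 : T.relIndex (T ⊔ Q) ≠ 0 := index_ne_zero_of_finite
          rcases (show T.relIndex (T ⊔ Q) = 1 ∨ T.relIndex (T ⊔ Q) = 2 by omega) with h | h
          · rw [show T.subgroupOf (T ⊔ Q) = ⊤ from index_eq_one.1 h]; infer_instance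
          · exact normal_of_index_eq_two h
        exact (normal_subgroupOf_iff_le_normalizer le_sup_left).1 hn (mem_sup_right hq)
      -- `Ω₁(Z(T)) ≤ U`
      have hzero : ∀ x ∈ T, x * x = 1 → (∀ t ∈ T, t * x = x * t) → x ∈ U := by
        intro x hx hx2 hxT
        have hfixall : ∀ y ∈ T, (∀ t ∈ T, t * y = y * t) → p * y * p⁻¹ = y →
            y ∈ centralizer (P0 : Set G) := by
          intro y _ hyT hyp
          refine mem_centralizer_iff.2 fun r hr => ?_
          rcases hmove r hr with h | h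
          · exact hyT r (hTmem r hr h)
          · have hrp : r * p ∈ T := hTmem _ (P0.mul_mem hr hp) (by
              calc r * p * u * (r * p)⁻¹ = r * (p * u * p⁻¹) * r⁻¹ := by group
                _ = (r * u * r⁻¹) * (r * z * r⁻¹) := by rw [hpu']; group
                _ = u := by rw [h, hzfix r hr, mul_inv_cancel_right, mul_assoc, hU2 z hzU, mul_one])
            have h1 := hyT _ hrp
            have h2 : p * y = y * p := mul_inv_eq_iff_eq_mul.1 hyp
            calc r * y = r * p * y * p⁻¹ := by rw [mul_assoc r p y, h2]; group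
              _ = y * r := by rw [h1]; group
        have hTU : ∀ t ∈ T, ∀ w ∈ U, t * w = w * t := by
          intro t ht w hw
          have htu : t * u * t⁻¹ = u := mul_inv_eq_iff_eq_mul.2 (mem_centralizer_singleton_iff.1 ht.2)
          have h1 := conj_mem_zpowers hcard hU2 hu hu1 hw htu ((mem_normalizer_iff.1 (hUn ht.1) w).1 hw)
          have h2 := conj_mem_zpowers hcard hU2 hzU hz1 hw (mul_inv_eq_iff_eq_mul.2 (hzfix t ht.1))
            ((mem_normalizer_iff.1 (hUn ht.1) w).1 hw)
          have h3 : ⁅w, t⁆ = 1 := by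
            obtain ⟨i, hi⟩ := mem_zpowers_iff.1 h1
            obtain ⟨j, hj⟩ := mem_zpowers_iff.1 h2
            rcases Int.even_or_odd i with ⟨k, rfl⟩ | ⟨k, rfl⟩
            · rw [← hi, zpow_add, ← (Commute.refl u).mul_zpow, hU2 u hu, one_zpow]
            · rw [two_mul, zpow_add, zpow_add, zpow_one, ← (Commute.refl u).mul_zpow, hU2 u hu,
                one_zpow, one_mul] at hi
              rcases Int.even_or_odd j with ⟨l, rfl⟩ | ⟨l, rfl⟩
              · rw [← hj, zpow_add, ← (Commute.refl z).mul_zpow, hU2 z hzU, one_zpow]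
              · rw [two_mul, zpow_add, zpow_add, zpow_one, ← (Commute.refl z).mul_zpow, hU2 z hzU,
                  one_zpow, one_mul] at hj
                exact absurd (hj.trans hi.symm) hznu
          exact (commutatorElement_eq_one_iff_mul_comm.1 h3).symm
        obtain ⟨x', hx'⟩ : ∃ x', x' = p * x * p⁻¹ := ⟨_, rfl⟩
        have hpT : p ∈ normalizer (T : Set G) := by
          have hn : (T.subgroupOf P0).Normal := normal_of_index_eq_two hTidx
          exact (normal_subgroupOf_iff_le_normalizer inf_le_left).1 hn hp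
        have hx'T : x' ∈ T := hx' ▸ (mem_normalizer_iff.1 hpT x).1 hx
        have hx'c : ∀ t ∈ T, t * x' = x' * t := fun t ht => by
          have ht' : p⁻¹ * t * p ∈ T := (mem_normalizer_iff''.1 hpT t).1 ht
          have h := hxT _ ht'
          calc t * x' = p * (p⁻¹ * t * p * x) * p⁻¹ := by rw [hx']; group
            _ = x' * t := by rw [h, hx']; group
        have hp2 : p * x' * p⁻¹ = x := by
          have hpp : p * p ∈ T := by
            refine hTmem _ (P0.mul_mem hp hp) ?_
            calc p * p * u * (p * p)⁻¹ = p * (p * u * p⁻¹) * p⁻¹ := by group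
              _ = p * (u * z) * p⁻¹ := by rw [hpu']
              _ = (p * u * p⁻¹) * (p * z * p⁻¹) := by group
              _ = u := by rw [hpu', hzfix p hp, mul_inv_cancel_right, mul_assoc, hU2 z hzU, mul_one]
          calc p * x' * p⁻¹ = (p * p * x) * (p * p)⁻¹ := by rw [hx']; group
            _ = x := by rw [hxT _ hpp, mul_inv_cancel_right]
        have hxx' : x * x' = x' * x := hx'c x hx
        obtain ⟨y, hy⟩ : ∃ y, y = x * x' := ⟨_, rfl⟩
        have hyT : y ∈ T := hy ▸ T.mul_mem hx hx'T
        have hyc : y ∈ centralizer (P0 : Set G) := hfixall y hyT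
          (fun t ht => by
            rw [hy, ← mul_assoc, hxT t ht, mul_assoc, hx'c t ht, mul_assoc])
          (by
            rw [hy, ← conj_mul, hp2, ← hx', hxx'])
        have hx'2 : x' * x' = 1 := by
          calc x' * x' = p * (x * x) * p⁻¹ := by rw [hx']; group
            _ = 1 := by rw [hx2]; group
        have hy2 : y * y = 1 := by
          rw [hy, mul_assoc, ← mul_assoc x' x x', ← hxx', mul_assoc x x' x', hx'2, mul_one, hx2]
        have hcase : ∀ w ∈ T, w * w = 1 → (∀ t ∈ T, t * w = w * t) → p * w * p⁻¹ = w → w ∈ U := by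
          intro w hw hw2 hwc hwp
          by_cases hw1 : w = 1
          · rw [hw1]; exact U.one_mem
          · rw [huniq w ⟨hw.1, hfixall w hw hwc hwp⟩ hw2 z hzc (hU2 z hzU) hw1 hz1]; exact hzU
        by_cases hy1 : y = 1
        · exact hcase x hx hx2 hxT (by
            rw [← hx']
            have h := inv_eq_of_mul_eq_one_right (hy ▸ hy1 : x * x' = 1)
            rw [← h, inv_eq_of_mul_eq_one_right hx2])
        · have hyz : y = z := huniq y ⟨hyT.1, hyc⟩ hy2 z hzc (hU2 z hzU) hy1 hz1
          have hxz : x' = x * z := by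
            rw [← hyz, hy, ← mul_assoc, hx2, one_mul]
          have huT : u ∈ T := hTmem u (hUP hu) (by group)
          have hxu : x * u = u * x := hxT u huT |>.symm
          have hm := hcase (x * u) (T.mul_mem hx huT) (by
              rw [mul_assoc, ← mul_assoc u x u, ← hxu, mul_assoc x u u, hU2 u hu, mul_one, hx2])
            (fun t ht => by rw [← mul_assoc, hxT t ht, mul_assoc, hTU t ht u hu, mul_assoc])
            (by
              rw [← conj_mul, ← hx', hxz, hpu', ← mul_assoc, mul_assoc x z u,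
                hTU u huT z hzU |>.symm, ← mul_assoc, mul_assoc (x * u) z z, hU2 z hzU, mul_one])
          have := U.mul_mem hm hu
          rwa [mul_assoc, hU2 u hu, mul_one] at this
      -- conclusion
      have hvT : ∀ w ∈ U, w ∈ T := fun w hw => hTmem w (hUP hw)
        (mul_inv_eq_iff_eq_mul.2 (congrArg Subtype.val (mul_comm' (⟨w, hw⟩ : U) ⟨u, hu⟩)))
      refine hzero _ ((mem_normalizer_iff.1 hqn v).1 (hvT v hv)) ?_ ?_
      · calc q * v * q⁻¹ * (q * v * q⁻¹) = q * (v * v) * q⁻¹ := by group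
          _ = 1 := by rw [hU2 v hv]; group
      · intro t ht
        have ht' : q⁻¹ * t * q ∈ T := (mem_normalizer_iff''.1 hqn t).1 ht
        have h : q⁻¹ * t * q * v = v * (q⁻¹ * t * q) := by
          have htv := ht'
          have h1 := conj_mem_zpowers hcard hU2 hu hu1 hv
            (mul_inv_eq_iff_eq_mul.2 (mem_centralizer_singleton_iff.1 htv.2))
            ((mem_normalizer_iff.1 (hUn htv.1) v).1 hv)
          have h2 := conj_mem_zpowers hcard hU2 hzU hz1 hv
            (mul_inv_eq_iff_eq_mul.2 (hzfix _ htv.1)) ((mem_normalizer_iff.1 (hUn htv.1) v).1 hv)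
          have hdis : Disjoint (zpowers u) (zpowers z) := by
            rw [disjoint_def]
            intro w hwu hwz
            by_contra hne
            obtain ⟨i, rfl⟩ := mem_zpowers_iff.1 hwu
            obtain ⟨j, hj⟩ := mem_zpowers_iff.1 hwz
            rcases Int.even_or_odd i with ⟨k, rfl⟩ | ⟨k, rfl⟩
            · exact hne (by rw [zpow_add, ← (Commute.refl u).mul_zpow, hU2 u hu, one_zpow])
            · rcases Int.even_or_odd j with ⟨l, rfl⟩ | ⟨l, rfl⟩
              · exact hne (by rw [← hj, zpow_add, ← (Commute.refl z).mul_zpow, hU2 z hzU, one_zpow])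
              · rw [two_mul, zpow_add, zpow_add, zpow_one, ← (Commute.refl z).mul_zpow, hU2 z hzU,
                  one_zpow, one_mul, two_mul, zpow_add, zpow_add, zpow_one,
                  ← (Commute.refl u).mul_zpow, hU2 u hu, one_zpow, one_mul] at hj
                exact hznu hj
          exact (commutatorElement_eq_one_iff_mul_comm.1 (disjoint_def.1 hdis h1 h2)).symm
        calc t * (q * v * q⁻¹) = q * (q⁻¹ * t * q * v) * q⁻¹ := by group
          _ = q * v * q⁻¹ * t := by rw [h]; group
  -- generation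
  intro v hv
  rw [mem_centralizer_iff]
  have hcop : (Nat.card U).Coprime (Nat.card K) := by
    rw [hcard]; exact (Nat.coprime_two_left.2 hK).pow_left 2
  have hgen := Coprime.iSup_centralizer_eq (A := U) IsKleinFour.not_isCyclic hUK hcop
  have hle : K ≤ centralizer ({v} : Set G) := by
    rw [← hgen]
    refine iSup₂_le fun u hu => ?_
    rintro x ⟨hxK, hxu⟩
    rw [mem_centralizer_singleton_iff]
    exact hchar u hu.1 hu.2 v hv (hconj u hu.1 hu.2 v hv) x hxK (mem_centralizer_singleton_iff.1 hxu)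
  exact fun x hx => mem_centralizer_singleton_iff.1 (hle hx)

end Cfsg.Agent.Tech.CharTwoFour
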